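import Cfsg.Agent.TorusSylow.Arith
import Cfsg.Agent.SL2.Basic

/-!
Block tori in `GL_n`, `Sp_2n` from an extension field.
-/

set_option autoImplicit false

namespace CfsgLib.TorusSylow

open Matrix

universe u

variable {F : Type u} [Field F] [Finite F]

/-- A field of a given degree over a finite field, with a basis and a symmetric invertible trace matrix. -/
theorem exists_ext (d : ℕ) (hd : 0 < d) :
    ∃ (K : Type) (_ : Field K) (_ : Fintype K) (L : K →+* Matrix (Fin d) (Fin d) F) (T : GL (Fin d) F),
      Function.Injective L ∧ Fintype.card K = Nat.card F ^ d ∧ (T : Matrix (Fin d) (Fin d) F).transpose = T ∧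
      ∀ z, (L z).transpose * T = (T : Matrix (Fin d) (Fin d) F) * L z := by
  classical
  haveI : NeZero d := ⟨hd.ne'⟩
  obtain ⟨p, hchar⟩ := CharP.exists F
  haveI := hchar
  haveI : Fact p.Prime := ⟨CharP.char_is_prime F p⟩
  let K := FiniteField.Extension F p d
  haveI := Fintype.ofFinite K
  have hrk : Module.finrank F K = d := by
    have h1 := Module.natCard_eq_pow_finrank (K := F) (V := K)
    rw [FiniteField.natCard_extension] at h1
    exact (Nat.pow_right_injective (Finite.one_lt_card (α := F)) h1).symm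
  let b : Module.Basis (Fin d) F K := Module.finBasisOfFinrankEq F K hrk
  have hdet : (Algebra.traceMatrix F b).det ≠ 0 := by
    rw [Algebra.traceMatrix_of_basis]
    exact (LinearMap.BilinForm.nondegenerate_iff_det_ne_zero b).mp (traceForm_nondegenerate F K)
  refine ⟨K, inferInstance, inferInstance, (Algebra.leftMulMatrix b).toRingHom,
    Matrix.GeneralLinearGroup.mkOfDetNeZero _ hdet, Algebra.leftMulMatrix_injective b, ?_, ?_, fun z => ?_⟩
  · rw [← Nat.card_eq_fintype_card]
    exact FiniteField.natCard_extension F p d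
  · ext i j
    show Algebra.traceMatrix F b j i = Algebra.traceMatrix F b i j
    rw [Algebra.traceMatrix_apply, Algebra.traceMatrix_apply, Algebra.traceForm_apply, Algebra.traceForm_apply,
      mul_comm]
  · have key : ∀ i j, (Algebra.traceMatrix F b * Algebra.leftMulMatrix b z) i j =
        Algebra.trace F K (b i * (z * b j)) := fun i j => by
      conv_rhs => rw [← b.sum_repr (z * b j), Finset.mul_sum, map_sum]
      rw [Matrix.mul_apply]
      refine Finset.sum_congr rfl fun k _ => ?_
      rw [Algebra.traceMatrix_apply, Algebra.traceForm_apply, Algebra.leftMulMatrix_eq_repr_mul,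
        mul_smul_comm, map_smul, smul_eq_mul, mul_comm]
    show (Algebra.leftMulMatrix b z).transpose * Algebra.traceMatrix F b =
      Algebra.traceMatrix F b * Algebra.leftMulMatrix b z
    ext i j
    have hsym : (Algebra.traceMatrix F b).transpose = Algebra.traceMatrix F b := by
      ext i j
      rw [Matrix.transpose_apply, Algebra.traceMatrix_apply, Algebra.traceMatrix_apply, Algebra.traceForm_apply,
        Algebra.traceForm_apply, mul_comm]
    conv_lhs => rw [← hsym, ← Matrix.transpose_mul, Matrix.transpose_apply]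
    rw [key, key]
    congr 1
    ring

/-- Blocks `L (z j)` followed by a diagonal part. -/
theorem exists_blocks {n d a : ℕ} (h : a * d ≤ n) {K : Type*} [Field K] (L : K →+* Matrix (Fin d) (Fin d) F)
    (hL : Function.Injective L) (T : GL (Fin d) F) (hT : (T : Matrix (Fin d) (Fin d) F).transpose = T)
    (hLT : ∀ z, (L z).transpose * T = (T : Matrix (Fin d) (Fin d) F) * L z) :
    ∃ (E : (Fin a → K) × (Fin (n - a * d) → F) →+* Matrix (Fin n) (Fin n) F) (S : GL (Fin n) F),
      Function.Injective E ∧ (S : Matrix (Fin n) (Fin n) F).transpose = S ∧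
      ∀ z, (E z).transpose * S = (S : Matrix (Fin n) (Fin n) F) * E z := by
  classical
  let e : (Fin d × Fin a) ⊕ Fin (n - a * d) ≃ Fin n :=
    ((finProdFinEquiv).sumCongr (Equiv.refl _)).trans (finSumFinEquiv.trans (finCongr (by rw [mul_comm]; omega)))
  let R := Matrix.reindexAlgEquiv F F e
  let blk : Matrix (Fin d × Fin a) (Fin d × Fin a) F → Matrix (Fin (n - a * d)) (Fin (n - a * d)) F →
      Matrix (Fin n) (Fin n) F := fun A B => R (Matrix.fromBlocks A 0 0 B)
  have hblk : ∀ A B A' B', blk A B * blk A' B' = blk (A * A') (B * B') := fun A B A' B' => by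
    simp only [blk, ← map_mul, Matrix.fromBlocks_multiply, Matrix.mul_zero, Matrix.zero_mul, add_zero, zero_add]
  have htr : ∀ A B, (blk A B).transpose = blk A.transpose B.transpose := fun A B => by
    simp [blk, R, Matrix.reindexAlgEquiv_apply, Matrix.fromBlocks_transpose]
  let E : (Fin a → K) × (Fin (n - a * d) → F) →+* Matrix (Fin n) (Fin n) F :=
    { toFun := fun z => blk (Matrix.blockDiagonal fun j => L (z.1 j)) (Matrix.diagonal z.2)
      map_one' := by
        simp only [blk, Prod.fst_one, Prod.snd_one, Pi.one_apply, map_one]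
        rw [show (fun _ : Fin a => (1 : Matrix (Fin d) (Fin d) F)) = 1 from rfl, Matrix.blockDiagonal_one,
          show Matrix.diagonal (1 : Fin (n - a * d) → F) = 1 from Matrix.diagonal_one, Matrix.fromBlocks_one, map_one]
      map_mul' := fun z w => by
        simp only [hblk, Prod.fst_mul, Prod.snd_mul, Pi.mul_apply, map_mul, Matrix.blockDiagonal_mul,
          Matrix.diagonal_mul_diagonal]
        rfl
      map_zero' := by
        simp only [blk, Prod.fst_zero, Prod.snd_zero, Pi.zero_apply, map_zero]
        rw [show (fun _ : Fin a => (0 : Matrix (Fin d) (Fin d) F)) = 0 from rfl, Matrix.blockDiagonal_zero,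
          show Matrix.diagonal (0 : Fin (n - a * d) → F) = 0 from Matrix.diagonal_zero, Matrix.fromBlocks_zero, map_zero]
      map_add' := fun z w => by
        simp only [blk, Prod.fst_add, Prod.snd_add, Pi.add_apply, map_add, ← Matrix.diagonal_add]
        rw [← map_add R, Matrix.fromBlocks_add, add_zero, ← Matrix.blockDiagonal_add, Matrix.diagonal_add, add_zero]
        rfl }
  have hS1 : blk (Matrix.blockDiagonal fun _ => (T : Matrix (Fin d) (Fin d) F)) 1 *
      blk (Matrix.blockDiagonal fun _ => ((T⁻¹ : GL (Fin d) F) : Matrix (Fin d) (Fin d) F)) 1 = 1 := by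
    rw [hblk, ← Matrix.blockDiagonal_mul, mul_one]
    simp only [← Units.val_mul, mul_inv_cancel, Units.val_one]
    simp only [blk]
    rw [show (fun _ : Fin a => (1 : Matrix (Fin d) (Fin d) F)) = 1 from rfl, Matrix.blockDiagonal_one,
      Matrix.fromBlocks_one, map_one]
  refine ⟨E, ⟨_, _, hS1, mul_eq_one_comm.mp hS1⟩, fun z w hzw => ?_, ?_, fun z => ?_⟩
  · have h1 := Matrix.fromBlocks_inj.mp (R.injective hzw)
    refine Prod.ext (funext fun j => hL ?_) (Matrix.diagonal_injective h1.2.2.2)
    exact congrFun (Matrix.blockDiagonal_injective h1.1) j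
  · show (blk _ 1).transpose = blk _ 1
    rw [htr, Matrix.blockDiagonal_transpose, Matrix.transpose_one]
    simp only [hT]
  · show (blk _ _).transpose * blk _ 1 = blk _ 1 * blk _ _
    rw [htr, hblk, hblk, Matrix.blockDiagonal_transpose, ← Matrix.blockDiagonal_mul, ← Matrix.blockDiagonal_mul,
      Matrix.diagonal_transpose, mul_one, one_mul]
    simp only [hLT]

/-- An embedded torus in `GL_n`. -/
theorem exists_gl_hom {n d a : ℕ} (h : a * d ≤ n) (hd : 0 < d) :
    ∃ (K : Type) (_ : Field K) (_ : Fintype K) (f : (Fin a → Kˣ) →* GL (Fin n) F),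
      Function.Injective f ∧ Fintype.card K = Nat.card F ^ d := by
  obtain ⟨K, _, _, L, T, hL, hc, hT, hLT⟩ := exists_ext (F := F) d hd
  obtain ⟨E, S, hE, -, -⟩ := exists_blocks h L hL T hT hLT
  let u : (Fin a → Kˣ) →* ((Fin a → K) × (Fin (n - a * d) → F))ˣ :=
    { toFun := fun x => ⟨(fun j => (x j : K), 1), (fun j => ((x j)⁻¹ : Kˣ), 1),
        by ext <;> simp, by ext <;> simp⟩
      map_one' := Units.ext (by ext <;> simp)
      map_mul' := fun x y => Units.ext (by ext <;> simp) }
  refine ⟨K, inferInstance, inferInstance, (Units.map E.toMonoidHom).comp u,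
    (Units.map_injective hE).comp fun x y hxy => funext fun j => Units.ext ?_, hc⟩
  exact congrFun (congrArg (fun z : ((Fin a → K) × (Fin (n - a * d) → F))ˣ => z.val.1) hxy) j

/-- Blocks of `SL₂(K)` in `Sp_2n(F)`. -/
theorem exists_sp_hom {n d a : ℕ} (h : a * d ≤ n) (hd : 0 < d) :
    ∃ (K : Type) (_ : Field K) (_ : Fintype K)
      (f : (Fin a → Matrix.SpecialLinearGroup (Fin 2) K) →* Matrix.symplecticGroup (Fin n) F),
      Function.Injective f ∧ Fintype.card K = Nat.card F ^ d := by
  classical
  obtain ⟨K, _, _, L, T, hL, hc, hT, hLT⟩ := exists_ext (F := F) d hd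
  obtain ⟨E, S, hE, hS, hES⟩ := exists_blocks h L hL T hT hLT
  set Sm := (S : Matrix (Fin n) (Fin n) F) with hSm
  set Si := ((S⁻¹ : GL (Fin n) F) : Matrix (Fin n) (Fin n) F) with hSi
  have hs1 : Sm * Si = 1 := by rw [hSm, hSi, ← Units.val_mul, mul_inv_cancel, Units.val_one]
  have hs2 : Si * Sm = 1 := by rw [hSm, hSi, ← Units.val_mul, inv_mul_cancel, Units.val_one]
  have hSiT : Si.transpose = Si := by
    have h1 : Si.transpose * Sm = 1 := by rw [← hS, ← Matrix.transpose_mul, hs1, Matrix.transpose_one]
    calc Si.transpose = Si.transpose * (Sm * Si) := by rw [hs1, mul_one]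
      _ = Si := by rw [← mul_assoc, h1, one_mul]
  let ent : Fin 2 → Fin 2 → (Fin a → Matrix.SpecialLinearGroup (Fin 2) K) →
      (Fin a → K) × (Fin (n - a * d) → F) := fun i k x =>
    (fun j => (x j).1 i k, fun _ => if i = k then 1 else 0)
  have hone : ∀ i k, ent i k 1 = if i = k then 1 else 0 := fun i k => by
    by_cases hik : i = k <;> simp [ent, hik, Prod.ext_iff, funext_iff]
  have hent : ∀ i k x y, ent i k (x * y) = ent i 0 x * ent 0 k y + ent i 1 x * ent 1 k y := fun i k x y => by
    refine Prod.ext (funext fun j => ?_) (funext fun _ => ?_)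
    · simp [ent, Matrix.mul_apply, Fin.sum_univ_two]
    · fin_cases i <;> fin_cases k <;> simp [ent]
  have hdet : ∀ x, ent 0 0 x * ent 1 1 x - ent 0 1 x * ent 1 0 x = 1 := fun x => by
    refine Prod.ext (funext fun j => ?_) (funext fun _ => by simp [ent])
    have := (x j).2
    rw [Matrix.det_fin_two] at this
    simpa [ent] using this
  let N : (Fin a → Matrix.SpecialLinearGroup (Fin 2) K) → Matrix (Fin n ⊕ Fin n) (Fin n ⊕ Fin n) F := fun x =>
    Matrix.fromBlocks (E (ent 0 0 x)) (E (ent 0 1 x) * Si) (Sm * E (ent 1 0 x)) (Sm * E (ent 1 1 x) * Si)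
  have hsw : ∀ z, Si * (E z).transpose = E z * Si := fun z => by
    calc Si * (E z).transpose = Si * ((E z).transpose * Sm) * Si := by simp only [mul_assoc, hs1, mul_one]
      _ = E z * Si := by rw [hES, ← mul_assoc, hs2, one_mul]
  have hmem : ∀ x, N x ∈ Matrix.symplecticGroup (Fin n) F := fun x => by
    rw [SymplecticGroup.mem_iff]
    simp only [N, Matrix.J, Matrix.fromBlocks_transpose, Matrix.fromBlocks_multiply, Matrix.transpose_mul, hSiT, hS,
      mul_zero, zero_mul, zero_add, add_zero, mul_one, mul_neg, neg_mul]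
    have hd0 : E (ent 0 0 x) * E (ent 1 1 x) - E (ent 0 1 x) * E (ent 1 0 x) = 1 := by
      rw [← map_mul, ← map_mul, ← map_sub, hdet, map_one]
    have k1 : ∀ u v, E u * Si * (E v).transpose = E (u * v) * Si := fun u v => by
      rw [mul_assoc, hsw, ← mul_assoc, map_mul]
    have k2 : ∀ u v, E u * Si * ((E v).transpose * Sm) = E (u * v) := fun u v => by
      rw [← mul_assoc, k1, mul_assoc, hs2, mul_one]
    congr 1
    · rw [← mul_assoc (E (ent 0 0 x)) Si, k1, k1, mul_comm (ent 0 1 x), add_neg_cancel]
    · have e1 : E (ent 0 0 x) * (Si * ((E (ent 1 1 x)).transpose * Sm)) = E (ent 0 0 x * ent 1 1 x) := by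
        rw [← k2, mul_assoc]
      rw [e1, k2, map_mul, map_mul, show (-1 : Matrix (Fin n) (Fin n) F) = -(E (ent 0 0 x) * E (ent 1 1 x) -
        E (ent 0 1 x) * E (ent 1 0 x)) by rw [hd0]]
      abel
    · have e2 : Sm * E (ent 1 0 x) * (Si * ((E (ent 0 1 x)).transpose)) = Sm * E (ent 1 0 x * ent 0 1 x) * Si := by
        rw [mul_assoc Sm, ← mul_assoc (E (ent 1 0 x)) Si, k1, mul_assoc]
      have e3 : Sm * E (ent 1 1 x) * Si * (E (ent 0 0 x)).transpose = Sm * E (ent 1 1 x * ent 0 0 x) * Si := by
        rw [mul_assoc (Sm * _), hsw, ← mul_assoc, mul_assoc Sm, map_mul]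
      rw [e2, e3, ← sub_eq_add_neg, ← sub_mul, ← mul_sub, ← map_sub, mul_comm (ent 1 1 x), mul_comm (ent 1 0 x),
        hdet, map_one, mul_one, hs1]
    · have e4 : ∀ u v, Sm * E u * (Si * ((E v).transpose * Sm)) = Sm * E (u * v) := fun u v => by
        rw [mul_assoc Sm, ← mul_assoc (E u) Si, k2]
      have e5 : ∀ u v, Sm * E u * Si * ((E v).transpose * Sm) = Sm * E (u * v) := fun u v => by
        rw [mul_assoc (Sm * _), e4]
      rw [e4, e5, mul_comm (ent 1 1 x), add_neg_cancel]
  let f : (Fin a → Matrix.SpecialLinearGroup (Fin 2) K) →* Matrix.symplecticGroup (Fin n) F :=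
    { toFun := fun x => ⟨N x, hmem x⟩
      map_one' := Subtype.ext (by
        show N 1 = 1
        simp [N, hone, hs1])
      map_mul' := fun x y => Subtype.ext (by
        show N (x * y) = N x * N y
        simp only [N, hent, map_add, map_mul, Matrix.fromBlocks_multiply]
        have c1 : ∀ A B, A * Si * (Sm * B) = A * B := fun A B => by rw [mul_assoc, ← mul_assoc Si, hs2, one_mul]
        simp only [c1, mul_add, add_mul, mul_assoc]) }
  refine ⟨K, inferInstance, inferInstance, f, fun x y hxy => ?_, hc⟩
  obtain ⟨h00, h01, h10, h11⟩ := Matrix.fromBlocks_inj.mp (congrArg Subtype.val hxy)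
  have cR : ∀ A B, A * Si = B * Si → A = B := fun A B h => by
    have := congrArg (fun z => z * Sm) h
    simpa only [mul_assoc, hs2, mul_one] using this
  have cL : ∀ A B, Sm * A = Sm * B → A = B := fun A B h => by
    have := congrArg (fun z => Si * z) h
    simpa only [← mul_assoc, hs2, one_mul] using this
  funext j
  refine Subtype.ext (Matrix.ext fun i k => ?_)
  have key : ∀ i k, E (ent i k x) = E (ent i k y) := fun i k => by
    fin_cases i <;> fin_cases k
    · exact h00
    · exact cR _ _ h01
    · exact cL _ _ h10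
    · exact cL _ _ (cR _ _ h11)
  exact congrFun (congrArg Prod.fst (hE (key i k))) j

/-- The contragredient embedding `GL_n → Sp_2n`. -/
theorem exists_gl_sp (n : ℕ) :
    ∃ f : GL (Fin n) F →* Matrix.symplecticGroup (Fin n) F, Function.Injective f := by
  refine ⟨{ toFun := fun g => ⟨Matrix.fromBlocks (g : Matrix (Fin n) (Fin n) F) 0 0
      ((g⁻¹ : GL (Fin n) F) : Matrix (Fin n) (Fin n) F).transpose, ?_⟩
            map_one' := Subtype.ext (by simp)
            map_mul' := fun g h => Subtype.ext ?_ }, fun g h hgh => ?_⟩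
  · rw [SymplecticGroup.mem_iff]
    simp [Matrix.J, Matrix.fromBlocks_transpose, Matrix.fromBlocks_multiply, ← Matrix.transpose_mul, -Matrix.coe_units_inv]
  · show _ = Matrix.fromBlocks _ _ _ _ * Matrix.fromBlocks _ _ _ _
    simp [Matrix.fromBlocks_multiply, ← Matrix.transpose_mul, -Matrix.coe_units_inv]
  · exact Units.ext (Matrix.fromBlocks_inj.mp (congrArg Subtype.val hgh)).1

end CfsgLib.TorusSylow
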